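import Mathlib
import Cfsg.Agent.H73.Fam

/-!
# `Fam` and central quotients (helper73)
-/

set_option autoImplicit false

open Cfsg Subgroup

namespace Cfsg.Agent.H73

/-- **Centralisers in central quotients.** -/
theorem fam_cent_of_central {E G : Type*} [Group E] [Group G] (π : E →* G) (hπ : Function.Surjective π)
    (hk : π.ker ≤ center E) {T : E} {n : ℕ} (h : Fam n ↥(centralizer ({T} : Set E))) :
    Fam n ↥(centralizer ({π T} : Set G)) := by
  have hm : ∀ g : ↥(centralizer ({T} : Set E)), π g ∈ centralizer ({π T} : Set G) := by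
    intro g
    rw [mem_centralizer_singleton_iff, ← map_mul, ← map_mul, mem_centralizer_singleton_iff.1 g.2]
  let f : ↥(centralizer ({T} : Set E)) →* ↥(centralizer ({π T} : Set G)) :=
    (π.comp (centralizer ({T} : Set E)).subtype).codRestrict _ hm
  refine h.of_hom f (j := 1) ?_
  rw [derivedSeries_one, commutator_def, commutator_le]
  rintro ⟨x, hx⟩ - ⟨y, hy⟩ -
  obtain ⟨a, rfl⟩ := hπ x
  obtain ⟨b, rfl⟩ := hπ y
  have key : ∀ c : E, π c ∈ centralizer ({π T} : Set G) → ∃ z ∈ center E, c * T * c⁻¹ = z * T := by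
    intro c hc
    rw [mem_centralizer_singleton_iff, ← map_mul, ← map_mul] at hc
    refine ⟨c * T * c⁻¹ * T⁻¹, hk ?_, by group⟩
    rw [MonoidHom.mem_ker]
    have e : c * T * c⁻¹ * T⁻¹ = c * T * (T * c)⁻¹ := by group
    rw [e, map_mul, map_inv, hc, mul_inv_cancel]
  obtain ⟨z, hz, hz'⟩ := key a hx
  obtain ⟨w, hw, hw'⟩ := key b hy
  have hzc : ∀ g, g * z = z * g := fun g => mem_center_iff.1 hz g
  have hwc : ∀ g, g * w = w * g := fun g => mem_center_iff.1 hw g
  have h1 : a * b * T * (a * b)⁻¹ = z * w * T := by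
    calc a * b * T * (a * b)⁻¹ = a * (b * T * b⁻¹) * a⁻¹ := by group
      _ = a * (w * T) * a⁻¹ := by rw [hw']
      _ = w * (a * T * a⁻¹) := by rw [← mul_assoc a w T, hwc a]; group
      _ = z * w * T := by rw [hz', ← mul_assoc, hzc w]
  have h2 : b * a * T * (b * a)⁻¹ = z * w * T := by
    calc b * a * T * (b * a)⁻¹ = b * (a * T * a⁻¹) * b⁻¹ := by group
      _ = b * (z * T) * b⁻¹ := by rw [hz']
      _ = z * (b * T * b⁻¹) := by rw [← mul_assoc b z T, hzc b]; group
      _ = z * w * T := by rw [hw', ← mul_assoc]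
  have h3 : a * b * a⁻¹ * b⁻¹ ∈ centralizer ({T} : Set E) := by
    rw [mem_centralizer_singleton_iff]
    have e1 : a * b * a⁻¹ * b⁻¹ = (a * b) * (b * a)⁻¹ := by group
    have h4 : (b * a)⁻¹ * (z * w * T) * (b * a) = T := by rw [← h2]; group
    have h5 : a * b * T = z * w * T * (a * b) := by rw [← h1]; group
    have h6 : (b * a)⁻¹ * (z * w * T) = T * (b * a)⁻¹ := by
      calc (b * a)⁻¹ * (z * w * T) = (b * a)⁻¹ * (z * w * T) * (b * a) * (b * a)⁻¹ := by group
        _ = T * (b * a)⁻¹ := by rw [h4]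
    have hzw : ∀ g, g * (z * w) = z * w * g := by
      intro g
      rw [← mul_assoc, hzc, mul_assoc, hwc, mul_assoc]
    have h7 : z * w * ((b * a)⁻¹ * T) = T * (b * a)⁻¹ := by
      rw [← h6, ← mul_assoc ((b * a)⁻¹) (z * w) T, hzw, mul_assoc (z * w)]
    calc a * b * a⁻¹ * b⁻¹ * T = (a * b) * ((b * a)⁻¹ * T) := by group
      _ = (a * b) * ((z * w)⁻¹ * (z * w * ((b * a)⁻¹ * T))) := by group
      _ = (a * b) * ((z * w)⁻¹ * (T * (b * a)⁻¹)) := by rw [h7]
      _ = (z * w)⁻¹ * (a * b * T) * (b * a)⁻¹ := by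
        have h8 : (a * b) * (z * w)⁻¹ = (z * w)⁻¹ * (a * b) :=
          (show Commute (a * b) (z * w) from hzw (a * b)).inv_right
        rw [← mul_assoc (a * b), h8]
        group
      _ = (z * w)⁻¹ * (z * w * T * (a * b)) * (b * a)⁻¹ := by rw [h5]
      _ = T * (a * b * a⁻¹ * b⁻¹) := by group
  refine ⟨⟨a * b * a⁻¹ * b⁻¹, h3⟩, ?_⟩
  apply Subtype.ext
  change π (a * b * a⁻¹ * b⁻¹) = π a * π b * (π a)⁻¹ * (π b)⁻¹
  rw [map_mul, map_mul, map_mul, map_inv, map_inv]

end Cfsg.Agent.H73
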