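import Mathlib
import Cfsg.Agent.H73.OrthSplit
import Cfsg.Agent.H73.FamProj
import Cfsg.Agent.GenOrth.Main
import Cfsg.Agent.GenOrth.Cases
import Cfsg.Prelude.Def_LieTypeChar

/-!
# Components of the centralisers of involutions of the simple orthogonal groups, odd characteristic (helper73)
-/

set_option autoImplicit false

universe u

namespace Cfsg.Agent.H73.Orth

open Subgroup Cfsg QuadraticMap
open Cfsg.Agent.LieClassical.OrthCore Cfsg.Agent.LieClassical.OrthTrans Cfsg.Agent.LieClassical.OrthSimple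

/-- the case `T² = -1` -/
def NegCase : Prop :=
  ∀ {ι : Type} [Fintype ι] [DecidableEq ι] {F : Type} [Field F] [Fintype F] {Q : QuadraticForm F (ι → F)},
    (2 : F) ≠ 0 → Nondeg Q → ∀ T ∈ O Q, (∀ v, T (T v) = -v) → Fam 4 ↥(CO Q T)

variable {ι : Type} [Fintype ι] [DecidableEq ι] {F : Type} [Field F] [Fintype F] {Q : QuadraticForm F (ι → F)}
  {G : Type u} [Group G]

theorem fam_E (hG : Good Q) {T : E Q} (h : Fam 4 ↥(CO Q T.1)) : Fam 4 ↥(centralizer ({T} : Set (E Q))) := by
  -- the centraliser of `T` in `E Q` as a subgroup of `CO Q T`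
  have h1 : Fam 4 ↥((E Q).subgroupOf (CO Q T.1)) := by
    refine h.subgroup (j := 1) ?_
    rw [derivedSeries_one, commutator_def, commutator_le]
    intro x _ y _
    rw [mem_subgroupOf]
    exact hG.commutator_le_E (Subgroup.commutator_mem_commutator (mem_CO.1 x.2).1 (mem_CO.1 y.2).1)
  have hm : ∀ g : ↥((E Q).subgroupOf (CO Q T.1)), (⟨g.1.1, g.2⟩ : E Q) ∈ centralizer ({T} : Set (E Q)) := fun g =>
    mem_centralizer_singleton_iff.2 (Subtype.ext (LinearEquiv.ext fun v => (mem_CO.1 g.1.2).2 v))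
  let φ : ↥((E Q).subgroupOf (CO Q T.1)) →* ↥(centralizer ({T} : Set (E Q))) :=
    { toFun := fun g => ⟨⟨g.1.1, g.2⟩, hm g⟩
      map_one' := rfl
      map_mul' := fun _ _ => rfl }
  refine h1.of_surjective (f := φ) ?_
  intro g
  have h2 : ∀ v, g.1.1 (T.1 v) = T.1 (g.1.1 v) := fun v =>
    congrArg (fun f : E Q => (f.1 : (ι → F) ≃ₗ[F] (ι → F)) v) (mem_centralizer_singleton_iff.1 g.2)
  exact ⟨⟨⟨g.1.1, mem_CO.2 ⟨E_le_O g.1.2, h2⟩⟩, g.1.2⟩, rfl⟩

/-- **The row.** -/
theorem row_of_good (hN : NegCase) (hG : Good Q) (f : G ≃* Cfsg.POmega F ⇑Q) (h2 : (2 : F) ≠ 0) [Finite G] :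
    RowN 4 G := by
  intro t ht
  obtain ⟨T, rfl⟩ := GenOrth.proj_surjective hG f t
  have h1 : GenOrth.proj hG f (T * T) = 1 := by
    rw [map_mul, ← pow_two, ← ht, pow_orderOf_eq_one]
  obtain ⟨c, hc, hcv⟩ := GenOrth.scalar_of_proj hG f h1
  have h3 : Fam 4 ↥(CO Q T.1) := by
    rcases hc with rfl | rfl
    · exact fam_CO h2 hG.nondeg (E_le_O T.2) (fun v => by
        have := hcv v
        rw [one_smul] at this
        exact this)
    · exact hN h2 hG.nondeg T.1 (E_le_O T.2) (fun v => by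
        have := hcv v
        rw [neg_one_smul] at this
        exact this)
  exact (fam_cent_of_central (GenOrth.proj hG f) (GenOrth.proj_surjective hG f)
    (fun g hg => GenOrth.center_of_proj hG f hg) (fam_E hG h3)).cb

theorem row_of_eq (hN : NegCase) (hG : Good Q) {q : (ι → F) → F} (hq : ⇑Q = q) (f : G ≃* Cfsg.POmega F q)
    (h2 : (2 : F) ≠ 0) [Finite G] : RowN 4 G := by
  subst hq
  exact row_of_good hN hG f h2

/-- **The simple orthogonal groups of odd characteristic**, up to the case `T² = -1`. -/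
theorem row (hN : NegCase) {p : ℕ} (hp : p.Prime) (hp2 : p ≠ 2) {G : Type u} [Group G] [Finite G]
    (h : IsPOmegaOddChar p G ∨ IsPOmegaPlusChar p G ∨ IsPOmegaMinusChar p G) : RowN 4 G := by
  have h2 : ∀ (F : Type) [Field F] [CharP F p], (2 : F) ≠ 0 := by
    intro F _ _ h2
    have h3 : p ∣ 2 := (CharP.cast_eq_zero_iff F p 2).1 (by exact_mod_cast h2)
    exact hp2 ((Nat.prime_dvd_prime_iff_eq hp Nat.prime_two).1 h3)
  rcases h with ⟨F, _, _, _, m, hm, -, ⟨f⟩⟩ | ⟨F, _, _, _, m, hm, ⟨f⟩⟩ | ⟨F, _, _, _, m, a, b, hm, hab, ⟨f⟩⟩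
  · have hG : Good (LieClassical.OrthForms.oddForm m F) := by
      refine LieClassical.OrthFinite.good_of_finite (LieClassical.OrthForms.nondeg_oddForm m F (h2 F)) ?_
      simp
      omega
    exact row_of_eq hN hG (LieClassical.OrthForms.coe_oddForm ..) f (h2 F)
  · have hG : Good (LieClassical.OrthForms.plusForm m F) := by
      refine LieClassical.OrthFinite.good_of_finite (LieClassical.OrthForms.nondeg_plusForm m F) ?_
      simp
      omega
    exact row_of_eq hN hG (LieClassical.OrthForms.coe_plusForm ..) f (h2 F)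
  · have hG : Good (LieClassical.OrthForms.minusForm (m - 1) F a b) := by
      refine LieClassical.OrthFinite.good_of_finite (LieClassical.OrthForms.nondeg_minusForm (m - 1) F a b hab) ?_
      simp
      omega
    exact row_of_eq hN hG (LieClassical.OrthForms.coe_minusForm ..) f (h2 F)

end Cfsg.Agent.H73.Orth
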